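import Cfsg.Agent.H474.CJ.Tool
import Cfsg.Agent.Co2Type.Setup
import Cfsg.Agent.SporRec.TwoSp6.Sp

/-!
# `Sp₆(2)`: an element of order seven has fixed vectors in all representations (helper474)
-/

set_option autoImplicit false

namespace Cfsg.Agent.H474.CJ.SpSix

open Subgroup Matrix Cfsg.Agent.SporRec.TwoSp6.Sp

/-- 3 by 3 matrices -/
abbrev M3 := Matrix (Fin 3) (Fin 3) (ZMod 2)

/-- a matrix of order seven -/
def P : M3 := !![0, 0, 1; 1, 0, 1; 0, 1, 0]
/-- the inverse of `P` -/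
def P' : M3 := !![1, 1, 0; 0, 0, 1; 1, 0, 0]
/-- the transposed inverse -/
def Q : M3 := !![1, 0, 1; 1, 0, 0; 0, 1, 0]
/-- the inverse of `Q` -/
def Q' : M3 := !![0, 1, 0; 0, 0, 1; 1, 1, 0]

theorem PP' : P * P' = 1 := by decide +kernel
theorem QQ' : Q * Q' = 1 := by decide +kernel
theorem P'_eq : P' = Qᵀ := by decide +kernel
theorem P_eq : P = Q'ᵀ := by decide +kernel
theorem P'P : P' * P = 1 := by decide +kernel
theorem Q'Q : Q' * Q = 1 := by decide +kernel

theorem P7 : P ^ 7 = 1 := by decide +kernel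
theorem Q7 : Q ^ 7 = 1 := by decide +kernel

/-- no intertwining matrix -/
theorem no_fix : ∀ B : M3, P * B = B * Q → B = 0 := by decide +kernel

theorem mem_of {A D : M3} (h : A * Dᵀ = 1) (h' : D * Aᵀ = 1) : fromBlocks A 0 0 D ∈ symplecticGroup (Fin 3) (ZMod 2) := by
  rw [SymplecticGroup.mem_iff, J, fromBlocks_transpose, fromBlocks_multiply, fromBlocks_multiply]
  simp only [Matrix.mul_zero, Matrix.zero_mul, transpose_zero, add_zero, zero_add, Matrix.mul_one, Matrix.mul_neg,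
    Matrix.neg_mul, h, h', neg_zero]

/-- the element of order seven -/
def y : S := ⟨fromBlocks P 0 0 Q, mem_of (by rw [← P'_eq]; exact PP') (by decide +kernel)⟩

/-- its inverse -/
def y' : S := ⟨fromBlocks P' 0 0 Q', mem_of (by decide +kernel) (by decide +kernel)⟩

theorem y_mul : y * y' = 1 := by
  apply Subtype.ext
  show fromBlocks P 0 0 Q * fromBlocks P' 0 0 Q' = 1
  rw [fromBlocks_multiply, PP', QQ']
  simp [fromBlocks_one]

theorem y_inv : y⁻¹ = y' := inv_eq_of_mul_eq_one_right y_mul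

theorem coe_pow (n : ℕ) : ((y ^ n : S) : Matrix (Fin 3 ⊕ Fin 3) (Fin 3 ⊕ Fin 3) (ZMod 2)) =
    fromBlocks (P ^ n) 0 0 (Q ^ n) := by
  induction n with
  | zero => simp [fromBlocks_one]
  | succ n ih =>
    rw [pow_succ, Submonoid.coe_mul, ih, pow_succ, pow_succ]
    show _ * fromBlocks P 0 0 Q = _
    rw [fromBlocks_multiply]
    simp

theorem y_pow : y ^ 7 = 1 := by
  apply Subtype.ext
  rw [coe_pow, P7, Q7]
  exact fromBlocks_one

theorem y_ne : y ≠ 1 := by
  intro h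
  have h1 := congrArg (fun s : S => (s : Matrix (Fin 3 ⊕ Fin 3) (Fin 3 ⊕ Fin 3) (ZMod 2))) h
  have h2 : fromBlocks P 0 0 Q = (1 : Matrix (Fin 3 ⊕ Fin 3) (Fin 3 ⊕ Fin 3) (ZMod 2)) := h1
  rw [← fromBlocks_one, fromBlocks_inj] at h2
  exact absurd h2.1 (by decide +kernel)

theorem orderOf_y : orderOf y = 7 := by
  have : Fact (Nat.Prime 7) := ⟨by norm_num⟩
  exact orderOf_eq_prime y_pow y_ne

/-- the elementary abelian subgroup of order `2^6` -/
def A : Subgroup S where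
  carrier := {s | ∃ B : M3, (s : Matrix (Fin 3 ⊕ Fin 3) (Fin 3 ⊕ Fin 3) (ZMod 2)) = fromBlocks 1 B 0 1}
  one_mem' := ⟨0, fromBlocks_one.symm⟩
  mul_mem' := by
    rintro s t ⟨B, hB⟩ ⟨C, hC⟩
    refine ⟨C + B, ?_⟩
    rw [Submonoid.coe_mul, hB, hC, fromBlocks_multiply]
    simp
  inv_mem' := by
    rintro s ⟨B, hB⟩
    have h1 : s * s = 1 := by
      apply Subtype.ext
      rw [Submonoid.coe_mul, hB, fromBlocks_multiply]
      have h2 : B + B = 0 := by
        ext i j
        exact CharTwo.add_self_eq_zero _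
      simp [h2, fromBlocks_one]
    rw [inv_eq_of_mul_eq_one_right h1]
    exact ⟨B, hB⟩

theorem A_comm : IsMulCommutative A := by
  refine ⟨⟨?_⟩⟩
  rintro ⟨s, B, hB⟩ ⟨t, C, hC⟩
  apply Subtype.ext
  apply Subtype.ext
  show (s : Matrix (Fin 3 ⊕ Fin 3) (Fin 3 ⊕ Fin 3) (ZMod 2)) * t = t * s
  rw [hB, hC, fromBlocks_multiply, fromBlocks_multiply]
  simp [add_comm]

/-- an element of `A` -/
def a₀ : S := ⟨fromBlocks 1 1 0 1, by
  rw [SymplecticGroup.mem_iff, J, fromBlocks_transpose, fromBlocks_multiply, fromBlocks_multiply]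
  simp⟩

theorem A_ne : A ≠ ⊥ := by
  intro h
  have h1 : a₀ ∈ A := ⟨1, rfl⟩
  rw [h, mem_bot] at h1
  have h2 : fromBlocks 1 1 0 1 = (1 : Matrix (Fin 3 ⊕ Fin 3) (Fin 3 ⊕ Fin 3) (ZMod 2)) := congrArg Subtype.val h1
  rw [← fromBlocks_one, fromBlocks_inj] at h2
  exact absurd h2.2.1 (by decide +kernel)

theorem norm_y {a : S} (ha : a ∈ A) : y * a * y⁻¹ ∈ A := by
  obtain ⟨B, hB⟩ := ha
  refine ⟨P * B * Q', ?_⟩
  rw [y_inv, Submonoid.coe_mul, Submonoid.coe_mul, hB]
  show fromBlocks P 0 0 Q * fromBlocks 1 B 0 1 * fromBlocks P' 0 0 Q' = _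
  rw [fromBlocks_multiply, fromBlocks_multiply]
  simp [PP', QQ']

theorem norm_pow {a : S} (ha : a ∈ A) (n : ℕ) : y ^ n * a * (y ^ n)⁻¹ ∈ A := by
  induction n with
  | zero => simpa using ha
  | succ n ih =>
    have h1 := norm_y ih
    have h2 : y ^ (n + 1) * a * (y ^ (n + 1))⁻¹ = y * (y ^ n * a * (y ^ n)⁻¹) * y⁻¹ := by
      rw [pow_succ']; group
    rw [h2]
    exact h1

theorem free {a : S} (ha : a ∈ A) (h : y * a = a * y) : a = 1 := by
  obtain ⟨B, hB⟩ := ha
  have h1 := congrArg (fun s : S => (s : Matrix (Fin 3 ⊕ Fin 3) (Fin 3 ⊕ Fin 3) (ZMod 2))) h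
  simp only [Submonoid.coe_mul, hB] at h1
  have h2 : fromBlocks P 0 0 Q * fromBlocks 1 B 0 1 = fromBlocks 1 B 0 1 * fromBlocks P 0 0 Q := h1
  rw [fromBlocks_multiply, fromBlocks_multiply, fromBlocks_inj] at h2
  have h3 : B = 0 := no_fix B (by simpa using h2.2.1)
  apply Subtype.ext
  rw [hB, h3]
  exact fromBlocks_one

/-- **An element of order seven has fixed vectors in all representations of `Sp₆(2)`.** -/
theorem fixIn_y : FixIn S y := by
  have hs : IsSimpleGroup S := Cfsg.Agent.Co2Type.Setup.isSimpleGroup_sp6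
  have h7 : Fact (Nat.Prime 7) := ⟨by norm_num⟩
  have hpow : ∀ c ∈ zpowers y, ∃ n : ℕ, c = y ^ n := by
    intro c hc
    obtain ⟨n, hn⟩ := (Submonoid.mem_powers_iff _ _).1 (mem_powers_iff_mem_zpowers.2 hc)
    exact ⟨n, hn.symm⟩
  refine fixIn_of_frob y A A_comm A_ne ?_ ?_
  · intro c hc a ha
    obtain ⟨n, rfl⟩ := hpow c hc
    exact norm_pow ha n
  · intro c hc a ha h
    by_cases hc1 : c = 1
    · exact Or.inl hc1
    right
    apply free ha
    have h1 : y ∈ zpowers c := by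
      have h2 : zpowers c = zpowers y := by
        apply eq_of_le_of_card_ge (zpowers_le.2 hc)
        rw [Nat.card_zpowers, Nat.card_zpowers, orderOf_y]
        have h3 : orderOf c ∣ 7 := by
          rw [← orderOf_y]
          exact orderOf_dvd_of_mem_zpowers hc
        rcases (Nat.dvd_prime h7.out).1 h3 with h4 | h4
        · exact absurd (orderOf_eq_one_iff.1 h4) hc1
        · rw [h4]
      rw [h2]
      exact mem_zpowers y
    obtain ⟨k, hk⟩ := h1
    have h2 : Commute c a := h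
    have h3 : Commute (c ^ k) a := h2.zpow_left k
    have h4 : c ^ k = y := hk
    rw [h4] at h3
    exact h3.eq

end Cfsg.Agent.H474.CJ.SpSix
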