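import Cfsg.Agent.H917.Conj.Basic
import Cfsg.Agent.H630.CJ.Base

/-!
# S4792: centralizers of involutions (helper474)

* `FixIn K y` : `y` has a nonzero fixed vector in every nonzero representation of `K`;
* `fixIn_of_frob` : `K` simple, `y` normalises an abelian subgroup on which it acts freely;
* `row_of_cent` : `z` an involution of a simple group `G`, `π` maps `C(z)` onto `K` with kernel in `⟨z⟩`, `FixIn K (π y)` and
  `C(z y) ≤ π⁻¹ ⟨π y⟩` : the row of `G`.
-/

set_option autoImplicit false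

namespace Cfsg.Agent.H474.CJ

open Subgroup Cfsg Cfsg.Agent.H430.Conj Module

universe u v

/-- `y` has a nonzero fixed vector in every nonzero representation of `K` -/
def FixIn (K : Type v) [Group K] (y : K) : Prop :=
  ∀ (W : Type) [AddCommGroup W] [Module ℂ W] [FiniteDimensional ℂ W] (σ : Representation ℂ K W), (∃ w : W, w ≠ 0) →
    ∃ w : W, w ≠ 0 ∧ σ y w = w

theorem FixIn.map {K : Type v} [Group K] {L : Type u} [Group L] {y : K} (h : FixIn K y) (f : K →* L) : FixIn L (f y) :=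
  fun W _ _ _ σ hW => h W (σ.comp f) hW

theorem FixIn.conj {K : Type v} [Group K] {y : K} (h : FixIn K y) (g : K) : FixIn K (g * y * g⁻¹) :=
  h.map (MulAut.conj g).toMonoidHom

theorem FixIn.pow {K : Type v} [Group K] {y : K} (h : FixIn K y) (n : ℕ) : FixIn K (y ^ n) := by
  intro W _ _ _ σ hW
  obtain ⟨w, hw, hw'⟩ := h W σ hW
  refine ⟨w, hw, ?_⟩
  rw [map_pow]
  induction n with
  | zero => rfl
  | succ n ih => rw [pow_succ, Module.End.mul_apply, hw', ih]

/-- a Frobenius group -/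
theorem fixIn_of_frob {K : Type v} [Group K] [Finite K] [IsSimpleGroup K] (y : K) (A : Subgroup K)
    (hA : IsMulCommutative A) (hA1 : A ≠ ⊥) (hn : ∀ c ∈ zpowers y, ∀ a ∈ A, c * a * c⁻¹ ∈ A)
    (hf : ∀ c ∈ zpowers y, ∀ a ∈ A, c * a = a * c → c = 1 ∨ a = 1) : FixIn K y := by
  intro W _ _ _ σ hW
  by_cases hA0 : ∀ a ∈ A, σ a = 1
  · have h1 : MonoidHom.ker σ = ⊤ := by
      rcases (MonoidHom.normal_ker σ).eq_bot_or_eq_top with h | h
      · exfalso
        apply hA1
        rw [eq_bot_iff, ← h]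
        exact fun a ha => hA0 a ha
      · exact h
    obtain ⟨w, hw⟩ := hW
    refine ⟨w, hw, ?_⟩
    have h2 : y ∈ MonoidHom.ker σ := by rw [h1]; exact mem_top y
    rw [show σ y = 1 from h2]
    rfl
  push Not at hA0
  obtain ⟨a₀, ha₀, h₀⟩ := hA0
  obtain ⟨l, hl1, hl⟩ := exists_occ_rep σ hA ha₀ h₀
  obtain ⟨v, hv, hv'⟩ := Occ.exists_vector hl
  have h1 : HasFix (zpowers y) σ.character := by
    refine hasFix_of_stab σ hn hv hv' fun c hc hst => ?_
    have hc1 : c = 1 := by
      by_contra hc1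
      apply hl1
      let φ : A → A := fun a => a⁻¹ * ⟨c * (a : K) * c⁻¹, hn c hc a a.2⟩
      have hφ : Function.Injective φ := by
        intro a b hab'
        have h6 : (a : K)⁻¹ * (c * (a : K) * c⁻¹) = (b : K)⁻¹ * (c * (b : K) * c⁻¹) :=
          congrArg Subtype.val hab'
        have h7 : (b : K) * (a : K)⁻¹ = (c * (b : K) * c⁻¹) * (c * (a : K) * c⁻¹)⁻¹ := by
          have h8 : (b : K) * (a : K)⁻¹ * (c * (a : K) * c⁻¹) = c * (b : K) * c⁻¹ := by
            rw [mul_assoc, h6]; group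
          rw [← h8]; group
        have h9 : c * ((b : K) * (a : K)⁻¹) = ((b : K) * (a : K)⁻¹) * c := by
          have : (c * (b : K) * c⁻¹) * (c * (a : K) * c⁻¹)⁻¹ = c * ((b : K) * (a : K)⁻¹) * c⁻¹ := by
            group
          rw [this] at h7
          exact (eq_mul_inv_iff_mul_eq.1 h7).symm
        have h10 := (hf c hc _ (A.mul_mem b.2 (A.inv_mem a.2)) h9).resolve_left hc1
        ext
        exact (mul_inv_eq_one.1 h10).symm
      have hφs : Function.Surjective φ := Finite.injective_iff_surjective.1 hφ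
      ext b
      obtain ⟨a, rfl⟩ := hφs b
      have h3 := hst a ⟨c * (a : K) * c⁻¹, hn c hc a a.2⟩ rfl
      simp only [φ, map_mul, map_inv, h3, inv_mul_cancel, MonoidHom.one_apply]
    rw [hc1, map_one]
    rfl
  obtain ⟨w, hw, hw'⟩ := HasFix.exists_vector h1
  exact ⟨w, hw, hw' y (mem_zpowers y)⟩

section

variable {G : Type u} [Group G]

/-- the fixed space of `z` -/
def fixSp {n : ℕ} (ρ : Representation ℂ G (Fin n → ℂ)) (z : G) : Submodule ℂ (Fin n → ℂ) where
  carrier := {v | ρ z v = v}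
  add_mem' {a b} ha hb := by
    simp only [Set.mem_ofPred_eq] at ha hb ⊢
    rw [map_add, ha, hb]
  zero_mem' := map_zero _
  smul_mem' c a ha := by
    simp only [Set.mem_ofPred_eq] at ha ⊢
    rw [map_smul, ha]

theorem mem_fixSp {n : ℕ} {ρ : Representation ℂ G (Fin n → ℂ)} {z : G} {v : Fin n → ℂ} :
    v ∈ fixSp ρ z ↔ ρ z v = v := Iff.rfl

theorem map_fixSp {n : ℕ} {ρ : Representation ℂ G (Fin n → ℂ)} {z : G} (c : centralizer ({z} : Set G)) :
    ∀ v ∈ fixSp ρ z, ρ (c : G) v ∈ fixSp ρ z := by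
  intro v hv
  rw [mem_fixSp] at hv ⊢
  rw [← Module.End.mul_apply, ← map_mul, ← mem_centralizer_singleton_iff.1 c.2, map_mul, Module.End.mul_apply, hv]

/-- the representation of `C(z)` on the fixed space of `z` -/
def onFix {n : ℕ} (ρ : Representation ℂ G (Fin n → ℂ)) (z : G) :
    Representation ℂ (centralizer ({z} : Set G)) (fixSp ρ z) where
  toFun c := (ρ (c : G)).restrict (map_fixSp c)
  map_one' := by
    ext v
    simp [LinearMap.restrict_apply]
  map_mul' a b := by
    ext v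
    simp [LinearMap.restrict_apply]

theorem onFix_apply {n : ℕ} (ρ : Representation ℂ G (Fin n → ℂ)) (z : G) (c : centralizer ({z} : Set G))
    (v : fixSp ρ z) : ((onFix ρ z c v : fixSp ρ z) : Fin n → ℂ) = ρ (c : G) v := rfl

/-- factorisation of a representation through a surjective homomorphism -/
theorem exists_factor {C : Type u} [Group C] {K : Type v} [Group K] (π : C →* K) (hπ : Function.Surjective π)
    {W : Type} [AddCommGroup W] [Module ℂ W] (σ : Representation ℂ C W) (hk : ∀ c, π c = 1 → σ c = 1) :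
    ∃ τ : Representation ℂ K W, ∀ c, τ (π c) = σ c := by
  have hle : ∀ c ∈ π.ker, σ c = 1 := fun c hc => hk c hc
  let f : C ⧸ π.ker →* (W →ₗ[ℂ] W) := QuotientGroup.lift π.ker σ hle
  let e := QuotientGroup.quotientKerEquivOfSurjective π hπ
  refine ⟨f.comp e.symm.toMonoidHom, fun c => ?_⟩
  have h1 : e.symm (π c) = (QuotientGroup.mk c : C ⧸ π.ker) := by
    rw [MulEquiv.symm_apply_eq]
    rfl
  show f (e.symm (π c)) = σ c
  rw [h1]
  rfl

/-- **the criterion** -/
theorem row_of_cent [Finite G] [IsSimpleGroup G] (hna : ¬ IsMulCommutative G) {z : G} (hz : z * z = 1) (hz1 : z ≠ 1)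
    {K : Type v} [Group K] (π : centralizer ({z} : Set G) →* K) (hπ : Function.Surjective π)
    (hker : ∀ c, π c = 1 → (c : G) ∈ zpowers z) (y : centralizer ({z} : Set G)) (hy : FixIn K (π y))
    (hC : ∀ c : G, c * (z * y) = z * y * c → ∃ hc : c ∈ centralizer ({z} : Set G), π ⟨c, hc⟩ ∈ zpowers (π y)) :
    Row G := by
  refine Cfsg.Agent.H630.CJ.row_of_vec fun n ρ hρ => ?_
  by_cases htriv : ρ.character = 1
  · obtain ⟨v, hv, h⟩ := Cfsg.Agent.H630.CJ.exists_vector (ρ := ρ) (C := ⊤) (by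
      rw [htriv]
      exact hasFix_one ⊤)
    exact ⟨1, v, hv, fun c _ => h c (mem_top c)⟩
  have hinj := injective_of_simple hρ htriv
  -- a fixed vector of `z`
  have hfix : ∃ w : fixSp ρ z, w ≠ 0 := by
    by_contra hcon
    push Not at hcon
    have h1 : ∀ v, ρ z v = -v := by
      intro v
      have h2 : v + ρ z v ∈ fixSp ρ z := by
        rw [mem_fixSp, map_add, ← Module.End.mul_apply, ← map_mul, hz, map_one, Module.End.one_apply, add_comm]
      have h3 : v + ρ z v = 0 := congrArg Subtype.val (hcon ⟨_, h2⟩)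
      rw [eq_neg_iff_add_eq_zero, add_comm]
      exact h3
    have h2 : z ∈ center G := by
      rw [mem_center_iff]
      intro g
      apply hinj
      rw [map_mul, map_mul]
      apply LinearMap.ext
      intro v
      rw [Module.End.mul_apply, Module.End.mul_apply, h1, h1, map_neg]
    rcases (inferInstance : (center G).Normal).eq_bot_or_eq_top with h | h
    · rw [h, mem_bot] at h2
      exact hz1 h2
    · apply hna
      refine ⟨⟨fun a b => ?_⟩⟩
      have h3 : a ∈ center G := by rw [h]; exact mem_top a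
      exact (mem_center_iff.1 h3 b).symm
  -- the elements of the kernel act trivially
  have hkz : ∀ c : G, c ∈ zpowers z → ∀ v ∈ fixSp ρ z, ρ c v = v := by
    intro c hc v hv
    exact (zpowers_le.2 (Cfsg.Agent.H630.CJ.mem_fixer.2 hv) : zpowers z ≤ Cfsg.Agent.H630.CJ.fixer ρ v) hc
  obtain ⟨τ, hτ⟩ := exists_factor π hπ (onFix ρ z) (by
    intro c hc
    apply LinearMap.ext
    intro v
    exact Subtype.ext (hkz c (hker c hc) v v.2))
  obtain ⟨w, hw, hw'⟩ := hy (fixSp ρ z) τ hfix
  rw [hτ] at hw'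
  refine ⟨z * y, w, fun h => hw (Subtype.ext h), fun c hc => ?_⟩
  obtain ⟨hcz, k, hk⟩ := hC c hc
  have hy1 : ρ (y : G) (w : Fin n → ℂ) = w := congrArg Subtype.val hw'
  have h1 : π (⟨c, hcz⟩ * (y ^ k)⁻¹) = 1 := by
    rw [map_mul, map_inv, map_zpow, ← hk, mul_inv_cancel]
  have h2 := hker _ h1
  rw [coe_mul, coe_inv, coe_zpow] at h2
  have h3 : ρ ((y : G) ^ k) (w : Fin n → ℂ) = w :=
    (zpowers_le.2 (Cfsg.Agent.H630.CJ.mem_fixer.2 hy1) : zpowers (y : G) ≤ Cfsg.Agent.H630.CJ.fixer ρ (w : Fin n → ℂ))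
      ⟨k, rfl⟩
  have h4 : c = (c * ((y : G) ^ k)⁻¹) * (y : G) ^ k := by group
  rw [h4, map_mul, Module.End.mul_apply, h3]
  exact hkz _ h2 w w.2

end

end Cfsg.Agent.H474.CJ
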